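import Cfsg.Agent.H419.EP.Big
import Cfsg.Agent.H117.EP.ModelPSL
import Cfsg.Agent.H729.EPM.PSp
import Cfsg.Agent.S0243
import Cfsg.Agent.S0245
import Cfsg.Agent.S0246
import Cfsg.Agent.S0280

/-!
# S3499, V-SPOR: the order frame for the models `SL`, `Sp`, `SU` (helper812)

For `m : Model Q S` with `S` one of the matrix groups of S3499 (linear, symplectic, unitary):

* `card_SL`, `card_Sp`, `card_SU` : the exact order of `Q`;
* `le_card_SL`, `le_card_Sp`, `le_card_SU` : `q^(n^2-2) ≤ |Q|`, `q^(2k^2+k) ≤ 4|Q|`, `q^(n^2-3) (q-1) ≤ |Q|` (`q^2 = |F|`);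
* `ordLin`, `ordSp`, `ordUni` : the targets of `H419.EP.Big`;
* `prime_SL`, `prime_Sp`, `prime_SU` : a prime `s ∣ |Q|`, `s ∤ q`, divides one of the factors.
-/

set_option autoImplicit false

namespace Cfsg.Agent.H812.EP

open Subgroup Cfsg.Agent.H284 Cfsg.Agent.H419.EP
open scoped MatrixGroups

/-! ### numbers -/

section num

/-- `∏_{j=1}^n (1 - x^j) ≥ 1 - x - x²` for `0 ≤ x ≤ 1/2` -/
theorem prod_one_sub (x : ℝ) (h0 : 0 ≤ x) (h1 : x ≤ 1 / 2) (n : ℕ) :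
    1 - x - x ^ 2 + x ^ (n + 2) ≤ ∏ j ∈ Finset.range (n + 1), (1 - x ^ (j + 1)) := by
  induction n with
  | zero => simp
  | succ n ih =>
    rw [Finset.prod_range_succ]
    have hx : 0 ≤ x ^ (n + 2) := pow_nonneg h0 _
    have hx2 : x ^ (n + 2) ≤ x ^ 2 := pow_le_pow_of_le_one h0 (by linarith) (by omega)
    have hx1 : x ^ (n + 2) ≤ 1 := pow_le_one₀ h0 (by linarith)
    refine le_trans ?_ (mul_le_mul_of_nonneg_right ih (by rw [show n + 1 + 1 = n + 2 by ring]; linarith))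
    rw [show n + 1 + 1 = n + 2 by ring, show n + 1 + 2 = n + 2 + 1 by ring, pow_succ x (n + 2)]
    nlinarith [mul_nonneg hx (sub_nonneg.2 hx2)]

/-- `∏_{j=1}^k (1 - y^j) ≥ (1 + y^k/2)·2/3` for `0 ≤ y ≤ 1/4` -/
theorem prod_one_sub' (y : ℝ) (h0 : 0 ≤ y) (h1 : y ≤ 1 / 4) (n : ℕ) :
    (2 + y ^ (n + 1)) / 3 ≤ ∏ j ∈ Finset.range (n + 1), (1 - y ^ (j + 1)) := by
  induction n with
  | zero =>
    simp only [zero_add, Finset.prod_range_one, pow_one]
    linarith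
  | succ n ih =>
    rw [Finset.prod_range_succ]
    have hx : 0 ≤ y ^ (n + 1) := pow_nonneg h0 _
    have hx1 : y ^ (n + 1) ≤ 1 / 4 := by
      calc y ^ (n + 1) ≤ y ^ 1 := pow_le_pow_of_le_one h0 (by linarith) (by omega)
        _ ≤ 1 / 4 := by rw [pow_one]; exact h1
    have e : y ^ (n + 1 + 1) = y ^ (n + 1) * y := pow_succ _ _
    have h2 : 0 ≤ 1 - y ^ (n + 1 + 1) := by rw [e]; nlinarith
    refine le_trans ?_ (mul_le_mul_of_nonneg_right ih h2)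
    rw [e]
    nlinarith [mul_nonneg hx h0, mul_nonneg hx (sub_nonneg.2 h1), mul_nonneg (mul_nonneg hx h0) (sub_nonneg.2 h1),
      mul_nonneg (mul_nonneg hx h0) (sub_nonneg.2 hx1), mul_nonneg hx (sub_nonneg.2 hx1)]

/-- `q^(n²-2) (q-1)² ≤ |GL_n(q)|` -/
theorem pow_le_prod_GL {q : ℕ} (hq : 2 ≤ q) (n : ℕ) (hn2 : 2 ≤ n) :
    q ^ (n ^ 2 - 2) * (q - 1) ^ 2 ≤ ∏ i : Fin n, (q ^ n - q ^ (i : ℕ)) := by
  have hn : 0 < n := by omega
  have hq0 : (0 : ℝ) < q := by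
    have : 0 < q := by omega
    exact_mod_cast this
  have hcast : ((∏ i : Fin n, (q ^ n - q ^ (i : ℕ)) : ℕ) : ℝ) = ∏ i ∈ Finset.range n, ((q : ℝ) ^ n - (q : ℝ) ^ i) := by
    rw [Fin.prod_univ_eq_prod_range (fun i => q ^ n - q ^ i) n, Nat.cast_prod]
    apply Finset.prod_congr rfl
    intro i hi
    rw [Nat.cast_sub (Nat.pow_le_pow_right (by omega) (Finset.mem_range.1 hi).le)]
    push_cast
    rfl
  have hprod : ∏ i ∈ Finset.range n, ((q : ℝ) ^ n - (q : ℝ) ^ i) =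
      (q : ℝ) ^ (n ^ 2) * ∏ j ∈ Finset.range n, (1 - ((q : ℝ)⁻¹) ^ (j + 1)) := by
    rw [← Finset.prod_range_reflect (fun j => (1 - ((q : ℝ)⁻¹) ^ (j + 1))) n]
    have e1 : (q : ℝ) ^ (n ^ 2) = ∏ i ∈ Finset.range n, (q : ℝ) ^ n := by
      rw [Finset.prod_const, Finset.card_range, ← pow_mul, pow_two]
    rw [e1, ← Finset.prod_mul_distrib]
    apply Finset.prod_congr rfl
    intro i hi
    have hi' := Finset.mem_range.1 hi
    have e2 : n - 1 - i + 1 = n - i := by omega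
    rw [e2, mul_sub, mul_one]
    congr 1
    have e3 : (q : ℝ) ^ n = (q : ℝ) ^ i * (q : ℝ) ^ (n - i) := by
      rw [← pow_add]
      congr 1
      omega
    rw [e3, mul_assoc, ← mul_pow, mul_inv_cancel₀ hq0.ne', one_pow, mul_one]
  have hx : (q : ℝ)⁻¹ ≤ 1 / 2 := by
    rw [one_div]
    apply inv_anti₀ (by norm_num)
    exact_mod_cast hq
  have hx0 : (0 : ℝ) ≤ (q : ℝ)⁻¹ := by positivity
  have h3 := prod_one_sub (q : ℝ)⁻¹ hx0 hx (n - 1)
  rw [Nat.sub_add_cancel hn] at h3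
  have h4 : (1 - (q : ℝ)⁻¹) ^ 2 ≤ ∏ j ∈ Finset.range n, (1 - ((q : ℝ)⁻¹) ^ (j + 1)) := by
    refine le_trans ?_ h3
    have : (0 : ℝ) ≤ ((q : ℝ)⁻¹) ^ (n - 1 + 2) := by positivity
    nlinarith
  have h5 : ((q ^ (n ^ 2 - 2) * (q - 1) ^ 2 : ℕ) : ℝ) ≤ ((∏ i : Fin n, (q ^ n - q ^ (i : ℕ)) : ℕ) : ℝ) := by
    rw [hcast, hprod]
    have e4 : ((q ^ (n ^ 2 - 2) * (q - 1) ^ 2 : ℕ) : ℝ) = (q : ℝ) ^ (n ^ 2) * (1 - (q : ℝ)⁻¹) ^ 2 := by
      push_cast [Nat.cast_sub (show 1 ≤ q by omega)]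
      have e5 : (q : ℝ) ^ (n ^ 2) = (q : ℝ) ^ (n ^ 2 - 2) * (q : ℝ) ^ 2 := by
        rw [← pow_add]
        congr 1
        have : 2 ^ 2 ≤ n ^ 2 := Nat.pow_le_pow_left hn2 2
        omega
      rw [e5]
      field_simp
    rw [e4]
    exact mul_le_mul_of_nonneg_left h4 (by positivity)
  exact_mod_cast h5

/-- `2 q^(k(k+1)) ≤ 3 ∏_{i ≤ k} (q^(2i) - 1)` -/
theorem pow_le_prod_Sp {q : ℕ} (hq : 2 ≤ q) (k : ℕ) :
    2 * q ^ (k * (k + 1)) ≤ 3 * ∏ i ∈ Finset.range k, (q ^ (2 * (i + 1)) - 1) := by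
  rcases Nat.eq_zero_or_pos k with rfl | hn
  · simp
  have hq0 : (0 : ℝ) < q := by
    have : 0 < q := by omega
    exact_mod_cast this
  have hcast : ((∏ i ∈ Finset.range k, (q ^ (2 * (i + 1)) - 1) : ℕ) : ℝ) =
      ∏ i ∈ Finset.range k, ((q : ℝ) ^ (2 * (i + 1)) - 1) := by
    rw [Nat.cast_prod]
    apply Finset.prod_congr rfl
    intro i hi
    rw [Nat.cast_sub (Nat.one_le_pow _ _ (by omega))]
    push_cast
    rfl
  have hprod : ∏ i ∈ Finset.range k, ((q : ℝ) ^ (2 * (i + 1)) - 1) =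
      (q : ℝ) ^ (k * (k + 1)) * ∏ j ∈ Finset.range k, (1 - (((q : ℝ) ^ 2)⁻¹) ^ (j + 1)) := by
    have e1 : (q : ℝ) ^ (k * (k + 1)) = ∏ i ∈ Finset.range k, (q : ℝ) ^ (2 * (i + 1)) := by
      rw [Finset.prod_pow_eq_pow_sum, ← Finset.mul_sum]
      congr 1
      have := Finset.sum_range_id_mul_two (k + 1)
      rw [Finset.sum_range_succ' _ k] at this
      simp only [add_tsub_cancel_right, add_zero] at this
      rw [mul_comm 2, this, mul_comm]
    rw [e1, ← Finset.prod_mul_distrib]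
    apply Finset.prod_congr rfl
    intro i hi
    rw [mul_sub, mul_one, inv_pow, ← pow_mul, mul_inv_cancel₀ (by positivity)]
  have hx : ((q : ℝ) ^ 2)⁻¹ ≤ 1 / 4 := by
    rw [one_div]
    apply inv_anti₀ (by norm_num)
    have : (2 : ℝ) ≤ q := by exact_mod_cast hq
    nlinarith
  have h3 := prod_one_sub' ((q : ℝ) ^ 2)⁻¹ (by positivity) hx (k - 1)
  rw [Nat.sub_add_cancel hn] at h3
  have h4 : (2 : ℝ) / 3 ≤ ∏ j ∈ Finset.range k, (1 - (((q : ℝ) ^ 2)⁻¹) ^ (j + 1)) := by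
    refine le_trans ?_ h3
    have : (0 : ℝ) ≤ (((q : ℝ) ^ 2)⁻¹) ^ k := by positivity
    linarith
  have h5 : ((2 * q ^ (k * (k + 1)) : ℕ) : ℝ) ≤ ((3 * ∏ i ∈ Finset.range k, (q ^ (2 * (i + 1)) - 1) : ℕ) : ℝ) := by
    rw [Nat.cast_mul 3, hcast, hprod]
    push_cast
    have : (0 : ℝ) < (q : ℝ) ^ (k * (k + 1)) := by positivity
    nlinarith
  exact_mod_cast h5

/-- `q^(n(n+1)/2-3) (q+1)² (q-1) ≤ ∏_{i ≤ n} (q^i - (-1)^i)` -/
theorem pow_le_prod_SU {q : ℕ} (hq : 2 ≤ q) (n : ℕ) (hn : 2 ≤ n) :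
    q ^ (n * (n + 1) / 2) * ((q + 1) * (q ^ 2 - 1)) ≤
      q ^ 3 * ∏ i ∈ Finset.range n, (if Even i then q ^ (i + 1) + 1 else q ^ (i + 1) - 1) := by
  have key : ∀ k : ℕ, q ^ ((k + 1) * (2 * k + 3)) * ((q + 1) * (q ^ 2 - 1)) ≤
      q ^ 3 * ∏ i ∈ Finset.range (2 * k + 2), (if Even i then q ^ (i + 1) + 1 else q ^ (i + 1) - 1) := by
    intro k
    induction k with
    | zero => simp [Finset.prod_range_succ]
    | succ k ih =>
      have e1 : Even (2 * k + 2) := ⟨k + 1, by ring⟩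
      have e2 : ¬ Even (2 * k + 2 + 1) := by
        rw [Nat.not_even_iff_odd]
        exact ⟨k + 1, by ring⟩
      rw [show 2 * (k + 1) + 2 = 2 * k + 2 + 1 + 1 by ring, Finset.prod_range_succ, Finset.prod_range_succ,
        if_pos e1, if_neg e2, mul_assoc]
      have h1 : q ^ (4 * k + 7) ≤ (q ^ (2 * k + 2 + 1) + 1) * (q ^ (2 * k + 2 + 1 + 1) - 1) := by
        have e : q ^ (2 * k + 2 + 1 + 1) = q * q ^ (2 * k + 2 + 1) := by ring
        have e2 : q ^ (4 * k + 7) = q * q ^ (2 * k + 2 + 1) * q ^ (2 * k + 2 + 1) := by ring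
        have h2 : 0 < q ^ (2 * k + 2 + 1) := Nat.pow_pos (by omega)
        rw [e, e2]
        generalize q ^ (2 * k + 2 + 1) = t at *
        obtain ⟨u, hu⟩ : ∃ u, q * t = u + 1 := ⟨q * t - 1, by
          have : 0 < q * t := Nat.mul_pos (by omega) h2
          omega⟩
        rw [hu, Nat.add_sub_cancel]
        have h3 : 2 * t ≤ u + 1 := by rw [← hu]; exact Nat.mul_le_mul_right _ hq
        nlinarith
      calc q ^ ((k + 1 + 1) * (2 * (k + 1) + 3)) * ((q + 1) * (q ^ 2 - 1))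
          = q ^ ((k + 1) * (2 * k + 3)) * ((q + 1) * (q ^ 2 - 1)) * q ^ (4 * k + 7) := by
            have : (k + 1 + 1) * (2 * (k + 1) + 3) = (k + 1) * (2 * k + 3) + (4 * k + 7) := by ring
            rw [this, pow_add]
            ring
        _ ≤ (q ^ 3 * ∏ i ∈ Finset.range (2 * k + 2), (if Even i then q ^ (i + 1) + 1 else q ^ (i + 1) - 1)) *
            ((q ^ (2 * k + 2 + 1) + 1) * (q ^ (2 * k + 2 + 1 + 1) - 1)) := Nat.mul_le_mul ih h1
        _ = _ := by ring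
  rcases Nat.even_or_odd' n with ⟨k, rfl | rfl⟩
  · obtain ⟨l, rfl⟩ : ∃ l, k = l + 1 := ⟨k - 1, by omega⟩
    refine le_trans (le_of_eq ?_) (key l)
    congr 2
    rw [show 2 * (l + 1) * (2 * (l + 1) + 1) = 2 * ((l + 1) * (2 * l + 3)) by ring,
      Nat.mul_div_cancel_left _ (by norm_num)]
  · obtain ⟨l, rfl⟩ : ∃ l, k = l + 1 := ⟨k - 1, by omega⟩
    rw [Finset.prod_range_succ, if_pos (even_two_mul _), ← mul_assoc (q ^ 3)]
    calc q ^ ((2 * (l + 1) + 1) * (2 * (l + 1) + 1 + 1) / 2) * ((q + 1) * (q ^ 2 - 1))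
        = q ^ ((l + 1) * (2 * l + 3)) * ((q + 1) * (q ^ 2 - 1)) * q ^ (2 * (l + 1) + 1) := by
          rw [show (2 * (l + 1) + 1) * (2 * (l + 1) + 1 + 1) = 2 * ((l + 1) * (2 * l + 3) + (2 * (l + 1) + 1)) by ring,
            Nat.mul_div_cancel_left _ (by norm_num), pow_add]
          ring
      _ ≤ _ := Nat.mul_le_mul (key l) (Nat.le_succ _)

end num

/-! ### the orders -/

section

variable {Q Q' : Type*} [Group Q] [Group Q'] {ι : Type} [Fintype ι] [DecidableEq ι] {F : Type*} [Field F]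
  {S : Subgroup (GL ι F)}

/-- Two groups with a model on the same `S` have the same order. -/
theorem card_eq_of_models (m : Model Q S) (m' : Model Q' S) : Nat.card Q = Nat.card Q' := by
  have hk : m.π.ker = m'.π.ker := by
    ext s
    rw [MonoidHom.mem_ker, MonoidHom.mem_ker, m.ker, m'.ker]
  exact Nat.card_congr ((QuotientGroup.quotientKerEquivOfSurjective m.π m.surj).symm.trans
    ((QuotientGroup.quotientMulEquivOfEq hk).trans (QuotientGroup.quotientKerEquivOfSurjective m'.π m'.surj))).toEquiv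

end

section

variable {Q : Type*} [Group Q] {F : Type*} [Field F] [Fintype F] {q : ℕ}

/-- order, linear -/
theorem card_SL (hF : Fintype.card F = q) {n : ℕ} (hn : 2 ≤ n) (m : Model Q (Cfsg.Geo.specialLinear (Fin n) F)) :
    Nat.gcd n (q - 1) * ((q - 1) * Nat.card Q) = ∏ i : Fin n, (q ^ n - q ^ (i : ℕ)) := by
  obtain ⟨m'⟩ := Cfsg.Agent.H117.EP.model_PSL (F := F) hn
  rw [card_eq_of_models m m']
  exact S0243.result hF n hn

/-- order, symplectic -/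
theorem card_Sp (hF : Fintype.card F = q) {k : ℕ} (hk : 1 ≤ k) (m : Model Q (Cfsg.spGL k F)) :
    Nat.gcd 2 (q - 1) * Nat.card Q = q ^ (k ^ 2) * ∏ i ∈ Finset.range k, (q ^ (2 * (i + 1)) - 1) := by
  rw [card_eq_of_models m (Cfsg.Agent.H729.EPM.modelPSp k F), ← S0245.result hF k, ← S0246.result hF k hk]
  exact (Subgroup.card_eq_card_quotient_mul_card_subgroup
    (Subgroup.center (Matrix.symplecticGroup (Fin k) F))).symm ▸ mul_comm _ _

/-- order, unitary (`|F| = q²`) -/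
theorem card_SU (hF : Fintype.card F = q ^ 2) {n : ℕ} (hn : 3 ≤ n)
    (m : Model Q (Cfsg.GU n F q ⊓ Cfsg.Geo.specialLinear (Fin n) F)) :
    Nat.gcd n (q + 1) * ((q + 1) * Nat.card Q) =
      q ^ (n * (n - 1) / 2) * ∏ i ∈ Finset.range n, (if Even i then q ^ (i + 1) + 1 else q ^ (i + 1) - 1) := by
  obtain ⟨m'⟩ := Cfsg.Agent.H117.EP.model_PSU hF hn
  rw [card_eq_of_models m m']
  exact S0280.result hF n (by omega)

theorem two_le_of_card (hF : Fintype.card F = q) : 2 ≤ q := by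
  rw [← hF]
  exact Fintype.one_lt_card

theorem two_le_of_card_sq (hF : Fintype.card F = q ^ 2) : 2 ≤ q := by
  have h := Fintype.one_lt_card (α := F)
  rw [hF] at h
  by_contra hcon
  have : q = 0 ∨ q = 1 := by omega
  rcases this with rfl | rfl <;> simp at h

/-- size, linear -/
theorem le_card_SL (hF : Fintype.card F = q) {n : ℕ} (hn : 2 ≤ n) (m : Model Q (Cfsg.Geo.specialLinear (Fin n) F)) :
    q ^ (n ^ 2 - 2) ≤ Nat.card Q := by
  have hq := two_le_of_card hF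
  have h1 := card_SL hF hn m
  have h2 := pow_le_prod_GL hq n hn
  rw [← h1] at h2
  have h3 : Nat.gcd n (q - 1) ≤ q - 1 := Nat.gcd_le_right _ (by omega)
  have h5 : Nat.gcd n (q - 1) * ((q - 1) * Nat.card Q) ≤ Nat.card Q * (q - 1) ^ 2 := by
    calc Nat.gcd n (q - 1) * ((q - 1) * Nat.card Q) ≤ (q - 1) * ((q - 1) * Nat.card Q) := Nat.mul_le_mul_right _ h3
      _ = _ := by ring
  exact Nat.le_of_mul_le_mul_right (h2.trans h5) (Nat.pow_pos (by omega))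

/-- size, symplectic -/
theorem le_card_Sp (hF : Fintype.card F = q) {k : ℕ} (hk : 1 ≤ k) (m : Model Q (Cfsg.spGL k F)) :
    q ^ (2 * k ^ 2 + k) ≤ 4 * Nat.card Q := by
  have hq := two_le_of_card hF
  have h1 := card_Sp hF hk m
  have h2 := pow_le_prod_Sp hq k
  have h3 : Nat.gcd 2 (q - 1) ≤ 2 := Nat.gcd_le_left _ (by norm_num)
  have h4 : 2 * q ^ (2 * k ^ 2 + k) ≤ 3 * (2 * Nat.card Q) := by
    calc 2 * q ^ (2 * k ^ 2 + k) = q ^ (k ^ 2) * (2 * q ^ (k * (k + 1))) := by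
          rw [mul_left_comm, ← pow_add]
          congr 2
          ring
      _ ≤ q ^ (k ^ 2) * (3 * ∏ i ∈ Finset.range k, (q ^ (2 * (i + 1)) - 1)) := Nat.mul_le_mul_left _ h2
      _ = 3 * (Nat.gcd 2 (q - 1) * Nat.card Q) := by rw [h1]; ring
      _ ≤ 3 * (2 * Nat.card Q) := Nat.mul_le_mul_left _ (Nat.mul_le_mul_right _ h3)
  omega

/-- size, unitary (`|F| = q²`) -/
theorem le_card_SU (hF : Fintype.card F = q ^ 2) {n : ℕ} (hn : 3 ≤ n)
    (m : Model Q (Cfsg.GU n F q ⊓ Cfsg.Geo.specialLinear (Fin n) F)) :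
    q ^ (n ^ 2 - 3) * (q - 1) ≤ Nat.card Q := by
  have hq := two_le_of_card_sq hF
  have h1 := card_SU hF hn m
  have h2 := pow_le_prod_SU hq n (by omega)
  have h3 : Nat.gcd n (q + 1) ≤ q + 1 := Nat.gcd_le_right _ (by omega)
  have h4 : q ^ (n ^ 2) * ((q + 1) * (q ^ 2 - 1)) ≤ q ^ 3 * ((q + 1) * ((q + 1) * Nat.card Q)) := by
    calc q ^ (n ^ 2) * ((q + 1) * (q ^ 2 - 1))
        = q ^ (n * (n - 1) / 2) * (q ^ (n * (n + 1) / 2) * ((q + 1) * (q ^ 2 - 1))) := by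
          rw [← mul_assoc (q ^ (n * (n - 1) / 2)), ← pow_add]
          congr 2
          obtain ⟨n, rfl⟩ : ∃ l, n = l + 1 := ⟨n - 1, by omega⟩
          rw [Nat.add_sub_cancel]
          have e1 : Even ((n + 1) * n) := by rw [mul_comm]; exact Nat.even_mul_succ_self n
          have e2 : Even ((n + 1) * (n + 1 + 1)) := Nat.even_mul_succ_self (n + 1)
          obtain ⟨a, ha⟩ := e1
          obtain ⟨b, hb⟩ := e2
          rw [ha, hb, ← two_mul, ← two_mul, Nat.mul_div_cancel_left _ (by norm_num),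
            Nat.mul_div_cancel_left _ (by norm_num)]
          nlinarith
      _ ≤ q ^ (n * (n - 1) / 2) *
          (q ^ 3 * ∏ i ∈ Finset.range n, (if Even i then q ^ (i + 1) + 1 else q ^ (i + 1) - 1)) :=
          Nat.mul_le_mul_left _ h2
      _ = q ^ 3 * (Nat.gcd n (q + 1) * ((q + 1) * Nat.card Q)) := by rw [h1]; ring
      _ ≤ _ := Nat.mul_le_mul_left _ (Nat.mul_le_mul_right _ h3)
  have h5 : q ^ (n ^ 2) = q ^ 3 * q ^ (n ^ 2 - 3) := by
    rw [← pow_add]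
    congr 1
    have : 3 ^ 2 ≤ n ^ 2 := Nat.pow_le_pow_left hn 2
    omega
  have h6 : q ^ 2 - 1 = (q + 1) * (q - 1) := by
    have := Nat.sq_sub_sq q 1
    simpa using this
  have h7 : (q ^ 3 * ((q + 1) * (q + 1))) * (q ^ (n ^ 2 - 3) * (q - 1)) ≤ (q ^ 3 * ((q + 1) * (q + 1))) * Nat.card Q := by
    calc (q ^ 3 * ((q + 1) * (q + 1))) * (q ^ (n ^ 2 - 3) * (q - 1)) = q ^ (n ^ 2) * ((q + 1) * (q ^ 2 - 1)) := by
          rw [h5, h6]; ring
      _ ≤ _ := h4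
      _ = _ := by ring
  exact Nat.le_of_mul_le_mul_left h7 (Nat.mul_pos (Nat.pow_pos (by omega)) (by positivity))

theorem ordLin : OrdLin := by
  intro Q _ _ F _ _ n m hn
  exact le_card_SL rfl (by omega) m

theorem ordSp : OrdSp := by
  intro Q _ _ F _ _ k m hk
  have h := le_card_Sp rfl (by omega) m
  rwa [show k * (2 * k + 1) = 2 * k ^ 2 + k by ring]

theorem ordUni : OrdUni := by
  intro Q _ _ F _ _ n q m hF hn
  refine le_trans (le_trans (le_of_eq (mul_one _).symm) (Nat.mul_le_mul_left _ ?_)) (le_card_SU hF (by omega) m)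
  have := two_le_of_card_sq hF
  omega

/-! ### the primes -/

/-- primes, linear -/
theorem prime_SL (hF : Fintype.card F = q) {n : ℕ} (hn : 2 ≤ n) (m : Model Q (Cfsg.Geo.specialLinear (Fin n) F))
    {s : ℕ} (hs : s.Prime) (hsQ : s ∣ Nat.card Q) (hsq : ¬ s ∣ q) : ∃ i, 1 ≤ i ∧ i ≤ n ∧ s ∣ q ^ i - 1 := by
  have h1 : s ∣ ∏ i : Fin n, (q ^ n - q ^ (i : ℕ)) := by
    rw [← card_SL hF hn m]
    exact Dvd.dvd.mul_left (Dvd.dvd.mul_left hsQ _) _
  obtain ⟨i, _, hi⟩ := (Prime.dvd_finsetProd_iff hs.prime _).1 h1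
  have e : q ^ n - q ^ (i : ℕ) = q ^ (i : ℕ) * (q ^ (n - i) - 1) := by
    rw [Nat.mul_sub, mul_one, ← pow_add, Nat.add_sub_cancel' i.2.le]
  rw [e, hs.dvd_mul] at hi
  rcases hi with hi | hi
  · exact absurd (hs.dvd_of_dvd_pow hi) hsq
  · exact ⟨n - i, by omega, Nat.sub_le _ _, hi⟩

/-- primes, symplectic -/
theorem prime_Sp (hF : Fintype.card F = q) {k : ℕ} (hk : 1 ≤ k) (m : Model Q (Cfsg.spGL k F))
    {s : ℕ} (hs : s.Prime) (hsQ : s ∣ Nat.card Q) (hsq : ¬ s ∣ q) : ∃ i, 1 ≤ i ∧ i ≤ k ∧ s ∣ q ^ (2 * i) - 1 := by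
  have h1 : s ∣ q ^ (k ^ 2) * ∏ i ∈ Finset.range k, (q ^ (2 * (i + 1)) - 1) := by
    rw [← card_Sp hF hk m]
    exact Dvd.dvd.mul_left hsQ _
  rcases (hs.dvd_mul).1 h1 with h1 | h1
  · exact absurd (hs.dvd_of_dvd_pow h1) hsq
  obtain ⟨i, hi1, hi⟩ := (Prime.dvd_finsetProd_iff hs.prime _).1 h1
  exact ⟨i + 1, by omega, by have := Finset.mem_range.1 hi1; omega, hi⟩

/-- primes, unitary (`|F| = q²`) -/
theorem prime_SU (hF : Fintype.card F = q ^ 2) {n : ℕ} (hn : 3 ≤ n)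
    (m : Model Q (Cfsg.GU n F q ⊓ Cfsg.Geo.specialLinear (Fin n) F))
    {s : ℕ} (hs : s.Prime) (hsQ : s ∣ Nat.card Q) (hsq : ¬ s ∣ q) :
    ∃ i, 1 ≤ i ∧ i ≤ n ∧ ((Odd i ∧ s ∣ q ^ i + 1) ∨ (Even i ∧ s ∣ q ^ i - 1)) := by
  have h1 : s ∣ q ^ (n * (n - 1) / 2) *
      ∏ i ∈ Finset.range n, (if Even i then q ^ (i + 1) + 1 else q ^ (i + 1) - 1) := by
    rw [← card_SU hF hn m]
    exact Dvd.dvd.mul_left (Dvd.dvd.mul_left hsQ _) _
  rcases (hs.dvd_mul).1 h1 with h1 | h1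
  · exact absurd (hs.dvd_of_dvd_pow h1) hsq
  obtain ⟨i, hi1, hi⟩ := (Prime.dvd_finsetProd_iff hs.prime _).1 h1
  refine ⟨i + 1, by omega, by have := Finset.mem_range.1 hi1; omega, ?_⟩
  by_cases he : Even i
  · rw [if_pos he] at hi
    exact Or.inl ⟨he.add_one, hi⟩
  · rw [if_neg he] at hi
    exact Or.inr ⟨(Nat.not_even_iff_odd.1 he).add_one, hi⟩

end

end Cfsg.Agent.H812.EP
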